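import Cfsg.Agent.Lib.Amalgam.Involves
import Cfsg.Agent.Lib.Amalgam.Chain
import Mathlib.GroupTheory.SpecificGroups.Dihedral

/-!
# Dihedral groups of order `2p` as sections
-/

set_option autoImplicit false

namespace Cfsg.Agent.Lib.Amalgam

open Cfsg DihedralGroup

variable {G Q : Type*} [Group G] [Group Q]

/-- A group with `r ≠ 1`, `r^p = 1`, `s² = 1`, `s r s⁻¹ = r⁻¹` receives an embedding of `D_{2p}`. -/
theorem exists_dihedral_embedding {p : ℕ} [hp : Fact p.Prime] (hp2 : p ≠ 2) (r' s : Q)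
    (hrp : r' ^ p = 1) (hr : r' ≠ 1) (hs : s ^ 2 = 1) (hsr : s * r' * s⁻¹ = r'⁻¹) :
    ∃ f : DihedralGroup p →* Q, Function.Injective f ∧ f (r 1) = r' ∧ f (sr 0) = s := by
  have hord : orderOf r' = p := orderOf_eq_prime hrp hr
  set g : ZMod p → Q := fun i => r' ^ i.val with hg
  have hgadd : ∀ i j, g (i + j) = g i * g j := by
    intro i j
    simp only [hg]
    rw [ZMod.val_add, ← pow_eq_pow_mod _ hrp, pow_add]
  have hg0 : g 0 = 1 := by simp [hg]
  have hgcomm : ∀ i j, g i * g j = g j * g i := by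
    intro i j
    rw [← hgadd, ← hgadd, add_comm]
  have hgsub : ∀ i j, (g i)⁻¹ * g j = g (j - i) := by
    intro i j
    rw [inv_mul_eq_iff_eq_mul, ← hgadd]
    congr 1; ring
  have hsinv : s⁻¹ = s := by
    rw [inv_eq_iff_mul_eq_one, ← sq, hs]
  have hgconj : ∀ i, s * g i * s⁻¹ = (g i)⁻¹ := by
    intro i
    simp only [hg]
    rw [← conj_pow, hsr, inv_pow]
  have hgconj' : ∀ i, g i * s = s * (g i)⁻¹ := by
    intro i
    rw [← hgconj i, hsinv]
    calc g i * s = (s * s) * g i * s := by rw [← sq, hs, one_mul]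
      _ = s * (s * g i * s) := by group
  have hss : s * s = 1 := by rw [← sq, hs]
  let fn : DihedralGroup p → Q := fun a => match a with
    | .r i => g i
    | .sr i => s * g i
  have hfn : ∀ a b, fn (a * b) = fn a * fn b := by
    rintro (i | i) (j | j)
    · simp only [r_mul_r, fn]; exact hgadd i j
    · simp only [r_mul_sr, fn]
      rw [← mul_assoc, hgconj' i, mul_assoc, hgsub]
    · simp only [sr_mul_r, fn]
      rw [hgadd, mul_assoc]
    · simp only [sr_mul_sr, fn]
      have : s * g i * (s * g j) = (s * (g i * s)) * g j := by group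
      rw [this, hgconj' i, ← mul_assoc, hss, one_mul, hgsub]
  let f : DihedralGroup p →* Q := MonoidHom.mk' fn hfn
  refine ⟨f, ?_, ?_, ?_⟩
  · rw [injective_iff_map_eq_one]
    rintro (i | i) hi
    · have h1 : r' ^ i.val = 1 := hi
      have h2 : p ∣ i.val := by
        have := orderOf_dvd_of_pow_eq_one h1
        rwa [hord] at this
      have h3 : i.val = 0 := Nat.eq_zero_of_dvd_of_lt h2 (ZMod.val_lt i)
      have h4 : i = 0 := by
        rwa [ZMod.val_eq_zero] at h3
      rw [h4]; rfl
    · exfalso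
      have h1 : s * g i = 1 := hi
      have h2 : s = (g i)⁻¹ := eq_inv_of_mul_eq_one_left h1
      have h3 : s * r' = r' * s := by
        rw [h2]
        exact ((Commute.refl r').pow_left i.val).inv_left
      have h4 : s * r' * s⁻¹ = r' := by rw [h3]; group
      rw [hsr] at h4
      have h5 : r' ^ 2 = 1 := by
        rw [sq]
        nth_rewrite 1 [← h4]
        group
      have h6 : p ∣ 2 := by rw [← hord]; exact orderOf_dvd_of_pow_eq_one h5
      exact hp2 ((Nat.prime_dvd_prime_iff_eq hp.out Nat.prime_two).mp h6)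
  · show g 1 = r'
    simp only [hg]
    haveI : Fact (1 < p) := ⟨hp.out.one_lt⟩
    rw [ZMod.val_one, pow_one]
  · show s * g 0 = s
    rw [hg0, mul_one]

/-- If `x` inverts `z` of order `p` (an odd prime) and `x` has `2`-power order, then `D_{2p}` is
involved in `G`. -/
theorem involves_dihedral_of_inverted [Finite G] {p : ℕ} [hp : Fact p.Prime] (hp2 : p ≠ 2) {x z : G}
    {k : ℕ} (hx : orderOf x = 2 ^ k) (hz : orderOf z = p) (hinv : x * z * x⁻¹ = z⁻¹) :
    Involves (DihedralGroup p) G := by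
  set C : Subgroup G := Subgroup.centralizer ((Subgroup.zpowers (x ^ 2) : Subgroup G) : Set G) with hC
  have hxC : x ∈ C := by
    rw [hC, Subgroup.mem_centralizer_iff]
    intro h hh
    obtain ⟨n, rfl⟩ := Subgroup.mem_zpowers_iff.mp hh
    exact (Commute.zpow_left (Commute.pow_left (Commute.refl x) 2) n)
  have hzC : z ∈ C := by
    rw [hC, Subgroup.mem_centralizer_iff]
    intro h hh
    obtain ⟨n, rfl⟩ := Subgroup.mem_zpowers_iff.mp hh
    have h2 : x ^ 2 * z = z * x ^ 2 := by
      have h3 : x * z = z⁻¹ * x := by rw [← hinv]; group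
      have h4 : x * z⁻¹ = z * x := by
        have h5 : x * z⁻¹ * x⁻¹ = z := by
          have h6 := congrArg (·⁻¹) hinv
          simpa [mul_assoc] using h6
        calc x * z⁻¹ = (x * z⁻¹ * x⁻¹) * x := by group
          _ = z * x := by rw [h5]
      calc x ^ 2 * z = x * (x * z) := by rw [sq, mul_assoc]
        _ = x * (z⁻¹ * x) := by rw [h3]
        _ = (x * z⁻¹) * x := by group
        _ = (z * x) * x := by rw [h4]
        _ = z * x ^ 2 := by rw [sq, mul_assoc]
    exact Commute.zpow_left (show Commute (x ^ 2) z from h2) n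
  set R : Subgroup C := (Subgroup.zpowers (x ^ 2)).subgroupOf C with hR
  have hRn : R.Normal := by
    refine ⟨?_⟩
    intro n hn g
    rw [hR, Subgroup.mem_subgroupOf] at hn ⊢
    have hc := Subgroup.mem_centralizer_iff.mp g.2 (n : G) hn
    have : ((g * n * g⁻¹ : C) : G) = (n : G) := by
      push_cast
      rw [← hc]; group
    rw [this]; exact hn
  let π : C →* C ⧸ R := QuotientGroup.mk' R
  have hπ : ∀ c : C, π c = 1 ↔ (c : G) ∈ Subgroup.zpowers (x ^ 2) := by
    intro c
    rw [QuotientGroup.mk'_apply, QuotientGroup.eq_one_iff, hR, Subgroup.mem_subgroupOf]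
  set r' : C ⧸ R := π ⟨z, hzC⟩ with hr'
  set s : C ⧸ R := π ⟨x, hxC⟩ with hs
  have hrp : r' ^ p = 1 := by
    rw [hr', ← map_pow]
    have : (⟨z, hzC⟩ : C) ^ p = 1 := by
      apply Subtype.ext
      show z ^ p = 1
      rw [← hz]; exact pow_orderOf_eq_one z
    rw [this, map_one]
  have hr1 : r' ≠ 1 := by
    intro h
    have h1 : z ∈ Subgroup.zpowers (x ^ 2) := (hπ ⟨z, hzC⟩).mp h
    have h3 : p ∣ 2 ^ k := by
      rw [← hz, ← hx]
      exact (orderOf_dvd_of_mem_zpowers h1).trans (orderOf_pow_dvd 2)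
    exact hp2 ((Nat.prime_dvd_prime_iff_eq hp.out Nat.prime_two).mp (hp.out.dvd_of_dvd_pow h3))
  have hs2 : s ^ 2 = 1 := by
    rw [hs, ← map_pow, hπ]
    exact Subgroup.mem_zpowers _
  have hsr : s * r' * s⁻¹ = r'⁻¹ := by
    rw [hs, hr', ← map_inv, ← map_mul, ← map_mul, ← map_inv]
    congr 1
    apply Subtype.ext
    exact hinv
  obtain ⟨f, hf, -, -⟩ := exists_dihedral_embedding hp2 r' s hrp hr1 hs2 hsr
  refine involves_of_section C π f hf ?_
  rintro y -
  exact QuotientGroup.mk'_surjective R y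

end Cfsg.Agent.Lib.Amalgam
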