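import Mathlib
import Cfsg.Prelude.Def_LocalEven
import Cfsg.Agent.Lib.Classical.SL2Sylow

/-!
# Coordinates on a natural `SL₂(F)`-module
-/

set_option autoImplicit false

namespace Cfsg.Agent.Lib.Amalgam

open Cfsg Matrix Matrix.SpecialLinearGroup Cfsg.Agent.Lib.Classical
open scoped MatrixGroups commutatorElement Pointwise

variable {G : Type*} [Group G] {F : Type*} [Field F]

/-- Coordinates on a faithful natural module, with the Sylow subgroup in upper triangular form. -/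
structure NatCoord (F : Type*) [Field F] (V L T : Subgroup G) where
  hn : L ≤ Subgroup.normalizer (V : Set G)
  ρ : L →* SpecialLinearGroup (Fin 2) F
  ψ : Additive V ≃+ (Fin 2 → F)
  bij : Function.Bijective ρ
  act : ∀ (l : L) (v : V), ∃ w : V, (w : G) = (l : G) * (v : G) * (l : G)⁻¹ ∧
    ψ (Additive.ofMul w) = ((ρ l : SpecialLinearGroup (Fin 2) F) : Matrix (Fin 2) (Fin 2) F).mulVec
      (ψ (Additive.ofMul v))
  memT : ∀ l : L, (l : G) ∈ T ↔ ∃ c : F, ρ l = transvection (zero_ne_one) c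
  hTL : T ≤ L

theorem exists_natCoord [Finite G] {p : ℕ} [Fact p.Prime] [Fintype F] (n : ℕ)
    (hF : Fintype.card F = p ^ n) (V L : Subgroup G) (hnat : IsNaturalSL2Module F V L)
    (hf : L ⊓ Subgroup.centralizer (V : Set G) = ⊥) (S : Sylow p ↥L) (T : Subgroup G)
    (hT : T = ((S : Subgroup ↥L).map L.subtype)) : Nonempty (NatCoord F V L T) := by
  classical
  obtain ⟨hn, ρ₀, ψ₀, hsurj, hker, hact⟩ := hnat
  have hinj : Function.Injective ρ₀ := by
    rw [injective_iff_map_eq_one]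
    intro l hl
    have h1 : l ∈ ρ₀.ker := hl
    rw [hker] at h1
    have h2 : (l : G) ∈ L ⊓ Subgroup.centralizer (V : Set G) := ⟨l.2, h1⟩
    rw [hf] at h2
    exact Subtype.ext (Subgroup.mem_bot.mp h2)
  haveI : CharP F p := charP_of_card_eq_prime_pow hF
  let P : Sylow p (SpecialLinearGroup (Fin 2) F) := S.mapSurjective hsurj
  obtain ⟨r, hr⟩ := exists_eq_UU (F := F) P
  obtain ⟨g, rfl⟩ := exists_smul_p0 r
  have hPeq : (S : Subgroup L).map ρ₀ = MulAut.conj g • UU (p0 : Projectivization F (Fin 2 → F)) := by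
    rw [← UU_smul, ← hr]
    rfl
  let mv : (Fin 2 → F) ≃+ (Fin 2 → F) :=
    { toFun := fun x => (((g⁻¹ : SpecialLinearGroup (Fin 2) F) : Matrix (Fin 2) (Fin 2) F)).mulVec x
      invFun := fun x => ((g : SpecialLinearGroup (Fin 2) F) : Matrix (Fin 2) (Fin 2) F).mulVec x
      left_inv := fun x => by
        show (g : Matrix (Fin 2) (Fin 2) F).mulVec (((g⁻¹ : SpecialLinearGroup (Fin 2) F) : Matrix (Fin 2) (Fin 2) F).mulVec x) = x
        have h : (g : Matrix (Fin 2) (Fin 2) F) * ((g⁻¹ : SpecialLinearGroup (Fin 2) F) : Matrix (Fin 2) (Fin 2) F) = 1 :=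
          congrArg Subtype.val (mul_inv_cancel g)
        rw [Matrix.mulVec_mulVec, h, Matrix.one_mulVec]
      right_inv := fun x => by
        show (((g⁻¹ : SpecialLinearGroup (Fin 2) F) : Matrix (Fin 2) (Fin 2) F)).mulVec ((g : Matrix (Fin 2) (Fin 2) F).mulVec x) = x
        have h : ((g⁻¹ : SpecialLinearGroup (Fin 2) F) : Matrix (Fin 2) (Fin 2) F) * (g : Matrix (Fin 2) (Fin 2) F) = 1 :=
          congrArg Subtype.val (inv_mul_cancel g)
        rw [Matrix.mulVec_mulVec, h, Matrix.one_mulVec]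
      map_add' := fun x y => Matrix.mulVec_add _ _ _ }
  refine ⟨{ hn := hn
            ρ := (MulAut.conj g⁻¹).toMonoidHom.comp ρ₀
            ψ := ψ₀.trans mv
            bij := ⟨?_, ?_⟩
            act := ?_
            memT := ?_
            hTL := ?_ }⟩
  · exact (MulAut.conj g⁻¹).injective.comp hinj
  · exact (MulAut.conj g⁻¹).surjective.comp hsurj
  · intro l v
    obtain ⟨w, hw, hψ⟩ := hact l v
    refine ⟨w, hw, ?_⟩
    show ((g⁻¹ : SpecialLinearGroup (Fin 2) F) : Matrix (Fin 2) (Fin 2) F).mulVec (ψ₀ (Additive.ofMul w)) =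
      ((g⁻¹ * ρ₀ l * g⁻¹⁻¹ : SpecialLinearGroup (Fin 2) F) : Matrix (Fin 2) (Fin 2) F).mulVec
        (((g⁻¹ : SpecialLinearGroup (Fin 2) F) : Matrix (Fin 2) (Fin 2) F).mulVec (ψ₀ (Additive.ofMul v)))
    have h : ((g⁻¹ * ρ₀ l * g⁻¹⁻¹ : SpecialLinearGroup (Fin 2) F) : Matrix (Fin 2) (Fin 2) F) * ((g⁻¹ : SpecialLinearGroup (Fin 2) F) : Matrix (Fin 2) (Fin 2) F) =
        ((g⁻¹ : SpecialLinearGroup (Fin 2) F) : Matrix (Fin 2) (Fin 2) F) * (ρ₀ l : Matrix (Fin 2) (Fin 2) F) := by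
      have h' : g⁻¹ * ρ₀ l * g⁻¹⁻¹ * g⁻¹ = g⁻¹ * ρ₀ l := by group
      exact congrArg Subtype.val h'
    rw [hψ, Matrix.mulVec_mulVec, Matrix.mulVec_mulVec, h]
  · intro l
    have h1 : (l : G) ∈ T ↔ l ∈ (S : Subgroup L) := by
      rw [hT]
      constructor
      · rintro ⟨x, hx, hxe⟩
        have : x = l := Subtype.ext hxe
        rwa [← this]
      · intro h
        exact ⟨l, h, rfl⟩
    rw [h1]
    have h2 : l ∈ (S : Subgroup L) ↔ ρ₀ l ∈ (S : Subgroup L).map ρ₀ := by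
      constructor
      · intro h
        exact ⟨l, h, rfl⟩
      · rintro ⟨x, hx, hxe⟩
        rwa [← hinj hxe]
    rw [h2, hPeq]
    have h3 : ρ₀ l ∈ MulAut.conj g • UU (p0 : Projectivization F (Fin 2 → F)) ↔
        g⁻¹ * ρ₀ l * g⁻¹⁻¹ ∈ UU (p0 : Projectivization F (Fin 2 → F)) := by
      rw [Subgroup.mem_pointwise_smul_iff_inv_smul_mem]
      rw [← map_inv]
      rfl
    rw [h3, mem_UU_p0]
    rfl
  · rw [hT]
    rintro _ ⟨x, hx, rfl⟩
    exact x.2

namespace NatCoord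

variable {V L T : Subgroup G} (D : NatCoord F V L T)

/-- The coordinate vector of an element. -/
def coord (v : V) : Fin 2 → F := D.ψ (Additive.ofMul v)

/-- The element with given coordinates. -/
def vec (x : Fin 2 → F) : V := Additive.toMul (D.ψ.symm x)

@[simp] theorem coord_vec (x : Fin 2 → F) : D.coord (D.vec x) = x := by
  simp [coord, vec]

@[simp] theorem vec_coord (v : V) : D.vec (D.coord v) = v := by
  simp [coord, vec]

theorem coord_mul (v w : V) : D.coord (v * w) = D.coord v + D.coord w := by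
  simp [coord]

theorem coord_one : D.coord 1 = 0 := by
  simp [coord]

theorem coord_inv (v : V) : D.coord v⁻¹ = - D.coord v := by
  simp [coord]

theorem coord_injective : Function.Injective D.coord := fun a b h => by
  have := congrArg D.vec h
  simpa using this

theorem coord_eq_zero {v : V} (h : D.coord v = 0) : v = 1 := by
  apply D.coord_injective
  rw [h, coord_one]

theorem conj_mem (D : NatCoord F V L T) (l : L) (v : V) : (l : G) * v * (l : G)⁻¹ ∈ V :=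
  (Subgroup.mem_normalizer_iff.mp (D.hn l.2) v).mp v.2

/-- The action on coordinates. -/
theorem coord_conj (l : L) (v : V) :
    D.coord ⟨(l : G) * v * (l : G)⁻¹, D.conj_mem l v⟩ =
      ((D.ρ l : SpecialLinearGroup (Fin 2) F) : Matrix (Fin 2) (Fin 2) F).mulVec (D.coord v) := by
  obtain ⟨w, hw, hψ⟩ := D.act l v
  have : (⟨(l : G) * v * (l : G)⁻¹, D.conj_mem l v⟩ : V) = w := Subtype.ext hw.symm
  rw [this]
  exact hψ

omit [Group G] in
theorem tr_mulVec (c : F) (x : Fin 2 → F) :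
    ((transvection (zero_ne_one) c : SpecialLinearGroup (Fin 2) F) : Matrix (Fin 2) (Fin 2) F).mulVec x 0 = x 0 + c * x 1 := by
  simp [transvection_coe, Matrix.add_mulVec, Matrix.single_mulVec]

omit [Group G] in
theorem tr_mulVec' (c : F) (x : Fin 2 → F) :
    ((transvection (zero_ne_one) c : SpecialLinearGroup (Fin 2) F) : Matrix (Fin 2) (Fin 2) F).mulVec x 1 = x 1 := by
  simp [transvection_coe, Matrix.add_mulVec, Matrix.single_mulVec]

/-- The fixed line, as a subgroup of the ambient group. -/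
def V₁ : Subgroup G where
  carrier := {g | ∃ h : g ∈ V, D.coord ⟨g, h⟩ 1 = 0}
  mul_mem' := by
    rintro a b ⟨ha, ha'⟩ ⟨hb, hb'⟩
    refine ⟨V.mul_mem ha hb, ?_⟩
    have : D.coord ⟨a * b, V.mul_mem ha hb⟩ = D.coord ⟨a, ha⟩ + D.coord ⟨b, hb⟩ := D.coord_mul ⟨a, ha⟩ ⟨b, hb⟩
    rw [this, Pi.add_apply, ha', hb', add_zero]
  one_mem' := by
    refine ⟨V.one_mem, ?_⟩
    have : D.coord ⟨1, V.one_mem⟩ = 0 := D.coord_one
    rw [this]
    rfl
  inv_mem' := by
    rintro a ⟨ha, ha'⟩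
    refine ⟨V.inv_mem ha, ?_⟩
    have : D.coord ⟨a⁻¹, V.inv_mem ha⟩ = - D.coord ⟨a, ha⟩ := D.coord_inv ⟨a, ha⟩
    rw [this, Pi.neg_apply, ha', neg_zero]

theorem V₁_le : D.V₁ ≤ V := fun _ h => h.1

theorem mem_V₁ {g : G} : g ∈ D.V₁ ↔ ∃ h : g ∈ V, D.coord ⟨g, h⟩ 1 = 0 := Iff.rfl

theorem mem_V₁' (v : V) : (v : G) ∈ D.V₁ ↔ D.coord v 1 = 0 :=
  ⟨fun ⟨_, h⟩ => h, fun h => ⟨v.2, h⟩⟩

/-- Elements of `T` act by transvections. -/
theorem exists_T (c : F) : ∃ t : L, (t : G) ∈ T ∧ D.ρ t = transvection (zero_ne_one) c := by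
  obtain ⟨t, ht⟩ := D.bij.2 (transvection (zero_ne_one) c)
  exact ⟨t, (D.memT t).mpr ⟨c, ht⟩, ht⟩

/-- The coordinates of `t v t⁻¹`. -/
theorem coord_conj_T {t : L} {c : F} (ht : D.ρ t = transvection (zero_ne_one) c) (v : V) :
    D.coord ⟨(t : G) * v * (t : G)⁻¹, D.conj_mem t v⟩ =
      ![D.coord v 0 + c * D.coord v 1, D.coord v 1] := by
  rw [coord_conj, ht]
  ext i
  fin_cases i
  · exact tr_mulVec c _
  · exact tr_mulVec' c _

/-- `v` commutes with `t` iff `c * y = 0`. -/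
theorem comm_iff {t : L} {c : F} (ht : D.ρ t = transvection (zero_ne_one) c) (v : V) :
    (t : G) * v = v * t ↔ c * D.coord v 1 = 0 := by
  constructor
  · intro h
    have h1 : (⟨(t : G) * v * (t : G)⁻¹, D.conj_mem t v⟩ : V) = v := by
      apply Subtype.ext
      show (t : G) * v * (t : G)⁻¹ = v
      rw [h]
      group
    have h2 := D.coord_conj_T ht v
    rw [h1] at h2
    have h3 := congrFun h2 0
    simp only [Matrix.cons_val_zero] at h3
    have h4 : c * D.coord v 1 = D.coord v 0 + c * D.coord v 1 - D.coord v 0 := by ring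
    rw [h4, ← h3]
    ring
  · intro h
    have h1 : (⟨(t : G) * v * (t : G)⁻¹, D.conj_mem t v⟩ : V) = v := by
      apply D.coord_injective
      rw [D.coord_conj_T ht v, h, add_zero]
      ext i
      fin_cases i <;> rfl
    have h2 : (t : G) * v * (t : G)⁻¹ = v := congrArg Subtype.val h1
    calc (t : G) * v = (t : G) * v * (t : G)⁻¹ * t := by group
      _ = v * t := by rw [h2]

/-- The commutator `[v, t]` in coordinates. -/
theorem coord_comm {t : L} {c : F} (ht : D.ρ t = transvection (zero_ne_one) c) (v : V) :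
    ∃ h : (v : G) * t * (v : G)⁻¹ * (t : G)⁻¹ ∈ V,
      D.coord ⟨(v : G) * t * (v : G)⁻¹ * (t : G)⁻¹, h⟩ = ![- (c * D.coord v 1), 0] := by
  have hm : (t : G) * (v⁻¹ : V) * (t : G)⁻¹ ∈ V := D.conj_mem t v⁻¹
  have e : (v : G) * t * (v : G)⁻¹ * (t : G)⁻¹ = (v : G) * ((t : G) * (v⁻¹ : V) * (t : G)⁻¹) := by
    push_cast
    group
  refine ⟨by rw [e]; exact V.mul_mem v.2 hm, ?_⟩
  have e2 : (⟨(v : G) * t * (v : G)⁻¹ * (t : G)⁻¹, by rw [e]; exact V.mul_mem v.2 hm⟩ : V) =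
      v * ⟨(t : G) * (v⁻¹ : V) * (t : G)⁻¹, hm⟩ := Subtype.ext e
  rw [e2, coord_mul, D.coord_conj_T ht, coord_inv]
  ext i
  fin_cases i
  · simp
  · simp

theorem inf_centralizer_T : V ⊓ Subgroup.centralizer (T : Set G) = D.V₁ := by
  ext g
  constructor
  · rintro ⟨hgV, hgC⟩
    obtain ⟨t, htT, ht⟩ := D.exists_T 1
    have h1 : (t : G) * g = g * t := Subgroup.mem_centralizer_iff.mp hgC t htT
    have h := (D.comm_iff ht ⟨g, hgV⟩).mp h1
    exact ⟨hgV, by simpa using h⟩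
  · rintro ⟨hgV, hg⟩
    refine ⟨hgV, Subgroup.mem_centralizer_iff.mpr ?_⟩
    intro t htT
    obtain ⟨c, hc⟩ := (D.memT ⟨t, D.hTL htT⟩).mp htT
    exact (D.comm_iff hc ⟨g, hgV⟩).mpr (by rw [hg, mul_zero])

theorem transvection_param_ne {s : L} {c : F} (hs : D.ρ s = transvection (zero_ne_one) c) (hs1 : s ≠ 1) :
    c ≠ 0 := by
  rintro rfl
  apply hs1
  apply D.bij.1
  rw [hs, map_one]
  apply Subtype.ext
  simp [transvection_coe]

theorem exists_param {s : G} (hsT : s ∈ T) (hs1 : s ≠ 1) :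
    ∃ (l : L) (c : F), (l : G) = s ∧ D.ρ l = transvection (zero_ne_one) c ∧ c ≠ 0 := by
  obtain ⟨c, hc⟩ := (D.memT ⟨s, D.hTL hsT⟩).mp hsT
  refine ⟨⟨s, D.hTL hsT⟩, c, rfl, hc, D.transvection_param_ne hc ?_⟩
  intro h
  exact hs1 (congrArg Subtype.val h)

theorem inf_centralizer_s {s : G} (hsT : s ∈ T) (hs1 : s ≠ 1) :
    V ⊓ Subgroup.centralizer ({s} : Set G) = D.V₁ := by
  obtain ⟨l, c, rfl, hc, hc0⟩ := D.exists_param hsT hs1
  ext g
  constructor
  · rintro ⟨hgV, hgC⟩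
    have h1 : (l : G) * g = g * l := Subgroup.mem_centralizer_iff.mp hgC l rfl
    have h := (D.comm_iff hc ⟨g, hgV⟩).mp h1
    exact ⟨hgV, (mul_eq_zero.mp h).resolve_left hc0⟩
  · rintro ⟨hgV, hg⟩
    refine ⟨hgV, Subgroup.mem_centralizer_iff.mpr ?_⟩
    rintro _ rfl
    exact (D.comm_iff hc ⟨g, hgV⟩).mpr (by rw [hg, mul_zero])

theorem comm_mem_V₁ {t : G} (ht : t ∈ T) (v : V) : (v : G) * t * (v : G)⁻¹ * t⁻¹ ∈ D.V₁ := by
  obtain ⟨c, hc⟩ := (D.memT ⟨t, D.hTL ht⟩).mp ht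
  obtain ⟨h, he⟩ := D.coord_comm hc v
  refine ⟨h, ?_⟩
  rw [he]
  rfl

theorem commutator_le_V₁ : ⁅V, T⁆ ≤ D.V₁ := by
  rw [Subgroup.commutator_le]
  intro v hv t ht
  exact D.comm_mem_V₁ ht ⟨v, hv⟩

/-- Every element of `V₁` is a commutator `[v, t]`, for any `t ≠ 1`, and for any `v ∉ V₁` and
suitable `t`. -/
theorem V₁_eq_comm {t : L} {c : F} (ht : D.ρ t = transvection (zero_ne_one) c) (hc : c ≠ 0)
    {u : G} (hu : u ∈ D.V₁) : ∃ v : V, u = (v : G) * t * (v : G)⁻¹ * (t : G)⁻¹ := by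
  obtain ⟨huV, hu1⟩ := hu
  refine ⟨D.vec ![0, - (D.coord ⟨u, huV⟩ 0 / c)], ?_⟩
  obtain ⟨h, he⟩ := D.coord_comm ht (D.vec ![0, - (D.coord ⟨u, huV⟩ 0 / c)])
  have h2 : (⟨u, huV⟩ : V) = ⟨_, h⟩ := by
    apply D.coord_injective
    rw [he, coord_vec]
    ext i
    fin_cases i
    · simp
      field_simp
    · simpa using hu1
  exact congrArg Subtype.val h2

theorem V₁_eq_comm' {v : V} (hv : D.coord v 1 ≠ 0) {u : G} (hu : u ∈ D.V₁) :
    ∃ t ∈ T, u = (v : G) * t * (v : G)⁻¹ * t⁻¹ := by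
  obtain ⟨huV, hu1⟩ := hu
  obtain ⟨t, htT, ht⟩ := D.exists_T (- (D.coord ⟨u, huV⟩ 0 / D.coord v 1))
  refine ⟨t, htT, ?_⟩
  obtain ⟨h, he⟩ := D.coord_comm ht v
  have h2 : (⟨u, huV⟩ : V) = ⟨_, h⟩ := by
    apply D.coord_injective
    rw [he]
    ext i
    fin_cases i
    · simp
      field_simp
    · simpa using hu1
  exact congrArg Subtype.val h2

theorem card_V (D : NatCoord F V L T) [Fintype F] : Nat.card V = Fintype.card F ^ 2 := by
  have h1 : Nat.card V = Nat.card (Fin 2 → F) :=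
    Nat.card_congr (Additive.toMul.symm.trans D.ψ.toEquiv)
  rw [h1, Nat.card_eq_fintype_card, Fintype.card_fun, Fintype.card_fin]

theorem card_V₁ [Fintype F] : Nat.card D.V₁ = Fintype.card F := by
  rw [← Nat.card_eq_fintype_card]
  apply Nat.card_eq_of_bijective (fun u : D.V₁ => D.coord ⟨u.1, u.2.1⟩ 0)
  constructor
  · rintro ⟨a, ha⟩ ⟨b, hb⟩ h
    have h' : D.coord ⟨a, ha.1⟩ 0 = D.coord ⟨b, hb.1⟩ 0 := h
    have h2 : (⟨a, ha.1⟩ : V) = ⟨b, hb.1⟩ := by
      apply D.coord_injective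
      ext i
      fin_cases i
      · exact h'
      · exact ha.2.trans hb.2.symm
    have h3 : a = b := congrArg Subtype.val h2
    exact Subtype.ext h3
  · intro x
    have hm : ((D.vec ![x, 0] : V) : G) ∈ D.V₁ := by
      rw [mem_V₁', coord_vec]
      rfl
    refine ⟨⟨_, hm⟩, ?_⟩
    show D.coord ⟨_, hm.1⟩ 0 = x
    have : (⟨((D.vec ![x, 0] : V) : G), hm.1⟩ : V) = D.vec ![x, 0] := rfl
    rw [this, coord_vec]
    rfl

end NatCoord

end Cfsg.Agent.Lib.Amalgam
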