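import Cfsg.Agent.Lib.Amalgam.QdAffine
import Cfsg.Agent.Lib.Classical.SL2Sylow

/-!
# Sylow subgroups of `Qd(F)`; the non-characteristic translation group
-/

set_option autoImplicit false

namespace Cfsg.Agent.Lib.Amalgam

open Matrix Cfsg Cfsg.Agent.Lib.KS2.SL2
open scoped MatrixGroups LinearAlgebra.Projectivization

variable {F : Type*} [Field F]

/-- The standard Sylow subgroup: upper unitriangular matrices. -/
noncomputable def stdSQd (F : Type*) [Field F] : Subgroup (QdE F) :=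
  (Cfsg.Agent.Lib.Classical.UU (Cfsg.Agent.Lib.Classical.p0 : ℙ F (Fin 2 → F))).comap (rhoQd F)

theorem mem_stdSQd_iff (M : QdE F) : M ∈ stdSQd F ↔ qe M 0 0 = 1 ∧ qe M 1 0 = 0 ∧ qe M 1 1 = 1 := by
  rw [stdSQd, Subgroup.mem_comap, Cfsg.Agent.Lib.Classical.mem_UU_p0]
  constructor
  · rintro ⟨c, hc⟩
    rw [← rhoQd00, ← rhoQd10, ← rhoQd11, hc]
    simp [Matrix.SpecialLinearGroup.transvection_coe]
  · rintro ⟨h0, h1, h2⟩
    refine ⟨qe M 0 1, ?_⟩
    apply ext4
    · rw [rhoQd00, h0]; simp [Matrix.SpecialLinearGroup.transvection_coe]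
    · rw [rhoQd01]; simp [Matrix.SpecialLinearGroup.transvection_coe]
    · rw [rhoQd10, h1]; simp [Matrix.SpecialLinearGroup.transvection_coe]
    · rw [rhoQd11, h2]; simp [Matrix.SpecialLinearGroup.transvection_coe]

/-- The swap map on the upper unitriangular group. -/
def swapFun (M : QdE F) : QdE F :=
  mkQd 1 (qe M 1 2) (-qe M 0 2 + qe M 0 1 * qe M 1 2) 0 1 (qe M 0 1) (by ring)

theorem swapFun_mem (M : QdE F) : swapFun M ∈ stdSQd F := by
  rw [mem_stdSQd_iff]
  exact ⟨rfl, rfl, rfl⟩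

theorem swapFun_swapFun {M : QdE F} (hM : M ∈ stdSQd F) : swapFun (swapFun M) = M := by
  obtain ⟨h0, h1, h2⟩ := (mem_stdSQd_iff M).mp hM
  apply qe_ext
  · simp [swapFun, h0]
  · simp [swapFun]
  · simp [swapFun]; ring
  · simp [swapFun, h1]
  · simp [swapFun, h2]
  · simp [swapFun]

theorem swapFun_mul {M N : QdE F} (hM : M ∈ stdSQd F) (hN : N ∈ stdSQd F) :
    swapFun (M * N) = swapFun M * swapFun N := by
  obtain ⟨h0, h1, h2⟩ := (mem_stdSQd_iff M).mp hM
  obtain ⟨k0, k1, k2⟩ := (mem_stdSQd_iff N).mp hN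
  apply qe_ext
  · simp [swapFun, qe_mul, qe22, qe20, qe21]
  · simp [swapFun, qe_mul, qe22, qe20, qe21, h0, h1, h2, k0, k1, k2]
  · simp [swapFun, qe_mul, qe22, qe20, qe21, h0, h1, h2, k0, k1, k2]; ring
  · simp [swapFun, qe_mul, qe22, qe20, qe21]
  · simp [swapFun, qe_mul, qe22, qe20, qe21]
  · simp [swapFun, qe_mul, qe22, qe20, qe21, h0, h1, h2, k0, k1, k2]

/-- The swap automorphism of the upper unitriangular group. -/
noncomputable def swapAut (F : Type*) [Field F] : ↥(stdSQd F) ≃* ↥(stdSQd F) where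
  toFun M := ⟨swapFun M.1, swapFun_mem _⟩
  invFun M := ⟨swapFun M.1, swapFun_mem _⟩
  left_inv M := Subtype.ext (swapFun_swapFun M.2)
  right_inv M := Subtype.ext (swapFun_swapFun M.2)
  map_mul' M N := Subtype.ext (swapFun_mul M.2 N.2)

theorem swapAut_coe (M : ↥(stdSQd F)) : ((swapAut F M : ↥(stdSQd F)) : QdE F) = swapFun M.1 := rfl

theorem swapFun01 (M : QdE F) : qe (swapFun M) 0 1 = qe M 1 2 := rfl

/-- Transport of a characteristic subgroup under conjugation. -/
theorem char_conj_transport {G : Type*} [Group G] (S₀ : Subgroup G) (φ : S₀ ≃* S₀) (g : G)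
    (T : Subgroup ↥(S₀.map (MulAut.conj g).toMonoidHom)) (hT : T.Characteristic)
    (K : Subgroup G) (hK : K.Normal) (hY : T.map (Subgroup.subtype _) = K) (x : S₀) (hx : x.1 ∈ K) :
    (φ x).1 ∈ K := by
  let e : S₀ ≃* ↥(S₀.map (MulAut.conj g).toMonoidHom) := (MulAut.conj g).subgroupMap S₀
  let ψ : MulAut ↥(S₀.map (MulAut.conj g).toMonoidHom) := (e.symm.trans φ).trans e
  have hex0 : ((e x : ↥(S₀.map (MulAut.conj g).toMonoidHom)) : G) ∈ K := hK.conj_mem _ hx g
  rw [← hY] at hex0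
  obtain ⟨t, ht, hte⟩ := hex0
  have ht' : t = e x := Subtype.ext hte
  rw [ht'] at ht
  have h1 : ψ (e x) ∈ T := by
    have := hT.fixed ψ
    have h2 : e x ∈ T.comap ψ.toMonoidHom := by rw [this]; exact ht
    exact h2
  have h3 : ψ (e x) = e (φ x) := by
    show e (φ (e.symm (e x))) = _
    rw [MulEquiv.symm_apply_apply]
  rw [h3] at h1
  have h4 : ((e (φ x)) : G) ∈ K := by
    rw [← hY]; exact ⟨_, h1, rfl⟩
  have h6 := hK.conj_mem _ h4 g⁻¹
  have h7 : ((e (φ x)) : G) = g * (φ x : G) * g⁻¹ := rfl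
  rw [h7] at h6
  simpa [mul_assoc] using h6

/-- The translation group is not invariant under automorphisms of a Sylow subgroup. -/
theorem not_char_translations (g : QdE F) (T : Subgroup ↥((stdSQd F).map (MulAut.conj g).toMonoidHom))
    (hT : T.Characteristic)
    (hY : T.map (Subgroup.subtype _) = (rhoQd F).ker) : False := by
  have hx0 : trQd (![0, 1] : Fin 2 → F) ∈ stdSQd F := by
    rw [mem_stdSQd_iff]; exact ⟨rfl, rfl, rfl⟩
  have h5 := char_conj_transport (stdSQd F) (swapAut F) g T hT _ inferInstance hY ⟨_, hx0⟩ (rhoQd_trQd _)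
  have h8 := ((rhoQd_eq_one_iff _).mp (MonoidHom.mem_ker.mp h5)).2.1
  rw [swapAut_coe, swapFun01] at h8
  simp [trQd12] at h8

/-- The vectors are conjugate under the block group. -/
theorem exists_conj_tr (v : Fin 2 → F) (hv : v ≠ 0) :
    ∃ σ : QdE F, σ * trQd ![1, 0] * σ⁻¹ = trQd v := by
  have hex : ∃ b d : F, v 0 * d - b * v 1 = 1 := by
    by_cases h0 : v 0 = 0
    · have h1 : v 1 ≠ 0 := by
        intro h1
        apply hv
        ext i
        fin_cases i
        · exact h0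
        · exact h1
      refine ⟨-(v 1)⁻¹, 0, ?_⟩
      field_simp
      ring
    · refine ⟨0, (v 0)⁻¹, ?_⟩
      field_simp
      ring
  obtain ⟨b, d, hbd⟩ := hex
  refine ⟨mkQd (v 0) b 0 (v 1) d 0 hbd, ?_⟩
  rw [mul_inv_eq_iff_eq_mul]
  apply qe_ext <;> simp [qe_mul, qe20, qe21, qe22, trQd00, trQd01, trQd02, trQd10, trQd11, trQd12]

/-- Irreducibility: a nontrivial normal subgroup inside the translations is everything. -/
theorem normal_le_ker_eq (Y : Subgroup (QdE F)) (hY : Y.Normal) (hY1 : Y ≠ ⊥) (hle : Y ≤ (rhoQd F).ker) :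
    Y = (rhoQd F).ker := by
  apply le_antisymm hle
  obtain ⟨y, hy, hy1⟩ := (Subgroup.ne_bot_iff_exists_ne_one.mp hY1 : ∃ y : Y, y ≠ 1) |> fun ⟨y, hy⟩ =>
    (⟨y.1, y.2, fun h => hy (Subtype.ext h)⟩ : ∃ y : QdE F, y ∈ Y ∧ y ≠ 1)
  have hyv := eq_trQd_of_rhoQd_eq_one (MonoidHom.mem_ker.mp (hle hy))
  have hv : (![qe y 0 2, qe y 1 2] : Fin 2 → F) ≠ 0 := by
    intro h0
    rw [h0, trQd_zero] at hyv
    exact hy1 hyv
  obtain ⟨σ, hσ⟩ := exists_conj_tr _ hv
  have he : trQd (![1, 0] : Fin 2 → F) ∈ Y := by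
    have h1 := hY.conj_mem y hy σ⁻¹
    rw [hyv, ← hσ] at h1
    simpa [mul_assoc] using h1
  intro x hx
  have hxv := eq_trQd_of_rhoQd_eq_one (MonoidHom.mem_ker.mp hx)
  by_cases hw : (![qe x 0 2, qe x 1 2] : Fin 2 → F) = 0
  · rw [hw, trQd_zero] at hxv
    rw [hxv]
    exact Y.one_mem
  · obtain ⟨τ, hτ⟩ := exists_conj_tr _ hw
    rw [hxv, ← hτ]
    exact hY.conj_mem _ he τ

section Sylow

open Cfsg.Agent.Lib.Classical
open scoped Pointwise

variable {p : ℕ} [hp : Fact p.Prime] [Fintype F] [CharP F p]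

theorem ker_le_sylow_qd (S : Sylow p (QdE F)) : (rhoQd F).ker ≤ S := by
  rw [← pCore_qdOver p]
  exact Cfsg.Agent.Lib.Core.pCore_le_sylow S

/-- An element whose image lies in the image of `S` lies in `S`. -/
theorem mem_sylow_qd_iff (S : Sylow p (QdE F)) (x : QdE F) :
    x ∈ (S : Subgroup (QdE F)) ↔ rhoQd F x ∈ (S : Subgroup (QdE F)).map (rhoQd F) := by
  constructor
  · intro h
    exact ⟨x, h, rfl⟩
  · rintro ⟨s, hs, hsx⟩
    have h1 : s⁻¹ * x ∈ (rhoQd F).ker := by
      rw [MonoidHom.mem_ker, map_mul, map_inv, hsx, inv_mul_cancel]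
    have h2 := (S : Subgroup (QdE F)).mul_mem hs (ker_le_sylow_qd S h1)
    simpa using h2

theorem exists_UU_sylow_qd (S : Sylow p (QdE F)) :
    ∃ r : ℙ F (Fin 2 → F), (S : Subgroup (QdE F)).map (rhoQd F) = UU r := by
  obtain ⟨r, hr⟩ := exists_eq_UU (p := p) (S.mapSurjective (rhoQd_surjective (F := F)))
  exact ⟨r, by rw [← hr]; rfl⟩

theorem conj_mem_UU_iff (c x : SL(2, F)) (r : ℙ F (Fin 2 → F)) :
    x ∈ MulAut.conj c • UU r ↔ c⁻¹ * x * c ∈ UU r := by
  rw [Subgroup.mem_pointwise_smul_iff_inv_smul_mem]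
  simp [MulAut.smul_def, MulAut.conj_inv_apply]

theorem exists_conj_std_qd (S : Sylow p (QdE F)) :
    ∃ g : QdE F, (S : Subgroup (QdE F)) = (stdSQd F).map (MulAut.conj g).toMonoidHom := by
  obtain ⟨r, hr⟩ := exists_UU_sylow_qd S
  obtain ⟨c, rfl⟩ := exists_smul_p0 r
  refine ⟨secQd F c, ?_⟩
  ext x
  rw [mem_sylow_qd_iff, hr, UU_smul, Subgroup.mem_pointwise_smul_iff_inv_smul_mem]
  constructor
  · intro h
    refine ⟨(secQd F c)⁻¹ * x * secQd F c, ?_, ?_⟩
    · show rhoQd F _ ∈ UU (p0 : ℙ F (Fin 2 → F))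
      simp only [map_mul, map_inv, rhoQd_secQd]
      simpa [MulAut.smul_def, MulAut.conj_inv_apply] using h
    · simp [MulAut.conj_apply, mul_assoc]
  · rintro ⟨y, hy, rfl⟩
    have h1 : rhoQd F y ∈ UU (p0 : ℙ F (Fin 2 → F)) := hy
    simpa [MulAut.smul_def, MulAut.conj_inv_apply, MulAut.conj_apply, mul_assoc, rhoQd_secQd] using h1

theorem UU_ne_bot_qd (r : ℙ F (Fin 2 → F)) : UU r ≠ ⊥ := by
  intro h
  have h1 := card_UU r
  rw [h, Subgroup.card_bot, Nat.card_eq_fintype_card] at h1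
  exact (Fintype.one_lt_card (α := F)).ne h1

/-- `S` is not normal. -/
theorem normalizer_sylow_ne_top_qd (S : Sylow p (QdE F)) :
    Subgroup.normalizer ((S : Subgroup (QdE F)) : Set (QdE F)) ≠ ⊤ := by
  intro h
  have hS : (S : Subgroup (QdE F)).Normal := Subgroup.normalizer_eq_top_iff.mp h
  have h1 : (S : Subgroup (QdE F)) ≤ (rhoQd F).ker := by
    rw [← pCore_qdOver p]
    exact Cfsg.Agent.Lib.Core.le_pCore hS S.isPGroup'
  obtain ⟨r, hr⟩ := exists_UU_sylow_qd S
  apply UU_ne_bot_qd r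
  rw [← hr]
  exact (Subgroup.map_eq_bot_iff _).mpr h1

theorem normalizer_sylow_le_char (S : Subgroup (QdE F)) (T : Subgroup ↥S) (hTc : T.Characteristic) :
    Subgroup.normalizer ((S : Subgroup (QdE F)) : Set (QdE F)) ≤
      Subgroup.normalizer ((T.map S.subtype : Subgroup (QdE F)) : Set (QdE F)) := by
  have key : ∀ g ∈ Subgroup.normalizer ((S : Subgroup (QdE F)) : Set (QdE F)),
      ∀ y ∈ T.map S.subtype, g * y * g⁻¹ ∈ T.map S.subtype := by
    intro g hg y hy
    obtain ⟨t, ht, rfl⟩ := hy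
    have hg' := Subgroup.mem_normalizer_iff.mp hg
    have hginv := Subgroup.mem_normalizer_iff.mp (Subgroup.inv_mem _ hg)
    let φ : MulAut ↥S :=
      { toFun := fun x => ⟨g * x * g⁻¹, (hg' x).mp x.2⟩
        invFun := fun x => ⟨g⁻¹ * x * g, by simpa using (hginv x).mp x.2⟩
        left_inv := fun x => Subtype.ext (by simp [mul_assoc])
        right_inv := fun x => Subtype.ext (by simp [mul_assoc])
        map_mul' := fun x y => Subtype.ext (by simp [mul_assoc]) }
    have h1 : φ t ∈ T := by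
      have h2 : t ∈ T.comap φ.toMonoidHom := by rw [hTc.fixed φ]; exact ht
      exact h2
    exact ⟨φ t, h1, rfl⟩
  intro g hg
  rw [Subgroup.mem_normalizer_iff]
  intro y
  constructor
  · exact key g hg y
  · intro h
    have := key g⁻¹ (Subgroup.inv_mem _ hg) _ h
    simpa [mul_assoc] using this

/-- Transport to the standard form. -/
theorem not_char_ker_of_conj (S : Subgroup (QdE F)) (g : QdE F) (hS : S = (stdSQd F).map (MulAut.conj g).toMonoidHom)
    (T : Subgroup ↥S) (hT : T.Characteristic) (hY : T.map S.subtype = (rhoQd F).ker) : False := by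
  subst hS
  exact not_char_translations g T hT hY

/-- The normalizer of a characteristic subgroup of a Sylow subgroup of `Qd(F)` is `N(S)`. -/
theorem normalizer_char_sylow_qd (S : Sylow p (QdE F)) (T : Subgroup ↥(S : Subgroup (QdE F)))
    (hT : T ≠ ⊥) (hTc : T.Characteristic) :
    Subgroup.normalizer ((T.map (S : Subgroup (QdE F)).subtype : Subgroup (QdE F)) : Set (QdE F)) =
      Subgroup.normalizer ((S : Subgroup (QdE F)) : Set (QdE F)) := by
  apply le_antisymm _ (normalizer_sylow_le_char _ T hTc)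
  set Y : Subgroup (QdE F) := T.map (S : Subgroup (QdE F)).subtype with hYdef
  set X := Subgroup.normalizer ((Y : Subgroup (QdE F)) : Set (QdE F)) with hX
  have hSX : (S : Subgroup (QdE F)) ≤ X :=
    (Subgroup.le_normalizer).trans (normalizer_sylow_le_char _ T hTc)
  have hKX : (rhoQd F).ker ≤ X := (ker_le_sylow_qd S).trans hSX
  intro h hh
  by_contra hns
  obtain ⟨r, hr⟩ := exists_UU_sylow_qd S
  -- the point is moved
  have hmove : rhoQd F h • r ≠ r := by
    intro hfix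
    apply hns
    have hUU : MulAut.conj (rhoQd F h) • UU r = UU r := by rw [← UU_smul, hfix]
    rw [Subgroup.mem_normalizer_iff]
    intro x
    rw [mem_sylow_qd_iff, mem_sylow_qd_iff, hr]
    simp only [map_mul, map_inv]
    constructor
    · intro hx
      rw [← hUU, conj_mem_UU_iff]
      have h1 : (rhoQd F h)⁻¹ * (rhoQd F h * rhoQd F x * (rhoQd F h)⁻¹) * rhoQd F h = rhoQd F x := by
        group
      rwa [h1]
    · intro hx
      rw [← hUU, conj_mem_UU_iff] at hx
      have h1 : (rhoQd F h)⁻¹ * (rhoQd F h * rhoQd F x * (rhoQd F h)⁻¹) * rhoQd F h = rhoQd F x := by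
        group
      rwa [h1] at hx
  have hsup := sup_UU_eq_top (F := F) hmove.symm
  have hmap : X.map (rhoQd F) = ⊤ := by
    rw [eq_top_iff, ← hsup]
    apply sup_le
    · rw [← hr]
      exact Subgroup.map_mono hSX
    · intro z hz
      rw [UU_smul, conj_mem_UU_iff, ← hr] at hz
      obtain ⟨s, hs, hsz⟩ := hz
      refine ⟨h * s * h⁻¹, X.mul_mem (X.mul_mem hh (hSX hs)) (X.inv_mem hh), ?_⟩
      simp only [map_mul, map_inv, hsz]
      simp [mul_assoc]
  have hXtop : X = ⊤ := by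
    rw [eq_top_iff]
    intro x _
    have hxm : rhoQd F x ∈ X.map (rhoQd F) := by rw [hmap]; trivial
    obtain ⟨y, hy, hyx⟩ := hxm
    have h1 : y⁻¹ * x ∈ (rhoQd F).ker := by
      rw [MonoidHom.mem_ker, map_mul, map_inv, hyx, inv_mul_cancel]
    have h2 := X.mul_mem hy (hKX h1)
    simpa using h2
  have hYn : Y.Normal := Subgroup.normalizer_eq_top_iff.mp hXtop
  have hYp : IsPGroup p Y := S.isPGroup'.to_le (Subgroup.map_subtype_le T)
  have hYK : Y ≤ (rhoQd F).ker := by
    rw [← pCore_qdOver p]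
    exact Cfsg.Agent.Lib.Core.le_pCore hYn hYp
  have hY1 : Y ≠ ⊥ := by
    intro hbot
    exact hT ((Subgroup.map_eq_bot_iff_of_injective _ (Subgroup.subtype_injective _)).mp hbot)
  have hYeq := normal_le_ker_eq Y hYn hY1 hYK
  obtain ⟨g, hg⟩ := exists_conj_std_qd S
  exact not_char_ker_of_conj _ g hg T hTc hYeq

end Sylow

end Cfsg.Agent.Lib.Amalgam
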