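import Cfsg.Agent.Lib.Amalgam.Residual
import Cfsg.Agent.Lib.Transfer.Basic
import Cfsg.Agent.Lib.FF.Basic
import Cfsg.Agent.Lib.Techniques.Complement
import Cfsg.Prelude.Def_LocalStructure

/-!
# The subgroups `V_λ^{(n)}` on the coset graph: generation and non-central factors
-/

set_option autoImplicit false

namespace Cfsg.Agent.Lib.Amalgam

open Cfsg
open scoped commutatorElement

section nil

variable {P : Type*} [Group P]

/-- In a nilpotent group, a normal subgroup `W` with `V ≤ W[V, P]` contains `V`. -/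
theorem le_of_le_sup_commutator_top [Group.IsNilpotent P] (W V : Subgroup P) [W.Normal]
    (h : V ≤ W ⊔ ⁅V, ⊤⁆) : V ≤ W := by
  let π := QuotientGroup.mk' W
  have hπ : Function.Surjective π := QuotientGroup.mk'_surjective W
  have h1 : V.map π ≤ ⁅V.map π, ⊤⁆ := by
    have h2 := Subgroup.map_mono (f := π) h
    rw [Subgroup.map_sup, Subgroup.map_commutator, QuotientGroup.map_mk'_self,
      Subgroup.map_top_of_surjective π hπ, bot_sup_eq] at h2
    exact h2
  have h3 : ∀ i, V.map π ≤ (⊤ : Subgroup (P ⧸ W)).lowerCentralSeries i := by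
    intro i
    induction i with
    | zero => exact le_top
    | succ i ih => exact h1.trans (Subgroup.commutator_mono ih le_rfl)
  haveI : Group.IsNilpotent (P ⧸ W) := Group.nilpotent_of_surjective π hπ
  obtain ⟨n, hn⟩ := nilpotent_iff_lowerCentralSeries.mp (inferInstance : Group.IsNilpotent (P ⧸ W))
  intro x hx
  have h4 : π x ∈ V.map π := ⟨x, hx, rfl⟩
  have h5 := h3 n h4
  rw [hn] at h5
  exact (QuotientGroup.eq_one_iff x).mp h5

/-- The ambient version. -/
theorem le_of_le_sup_commutator {X : Type*} [Group X] {p : ℕ} [Fact p.Prime] {Q V W : Subgroup X}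
    [Finite Q] (hQ : IsPGroup p Q) (hVQ : V ≤ Q) (hWQ : W ≤ Q)
    (hQW : Q ≤ Subgroup.normalizer (W : Set X)) (h : V ≤ W ⊔ ⁅V, Q⁆) : V ≤ W := by
  haveI : Group.IsNilpotent Q := hQ.isNilpotent
  haveI : (W.subgroupOf Q).Normal := (Subgroup.normal_subgroupOf_iff_le_normalizer hWQ).mpr hQW
  have h1 := le_of_le_sup_commutator_top (W.subgroupOf Q) (V.subgroupOf Q) (by
    apply (Subgroup.map_le_map_iff_of_injective Q.subtype_injective).mp
    rw [Subgroup.map_sup, Subgroup.map_commutator, Subgroup.subgroupOf_map_subtype,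
      Subgroup.subgroupOf_map_subtype, ← MonoidHom.range_eq_map, Subgroup.range_subtype,
      inf_eq_left.mpr hVQ, inf_eq_left.mpr hWQ]
    exact h)
  intro x hx
  exact h1 (show (⟨x, hVQ hx⟩ : Q) ∈ V.subgroupOf Q from hx)

end nil

section Graph

variable {X : Type*} [Group X] {M₁ M₂ : Subgroup X} {p : ℕ}

theorem vertexZ_le_iter {n : ℕ} {δ ν : CosetVertex M₁ M₂} (h : (cosetGraph M₁ M₂).dist δ ν ≤ n) :
    vertexZ p ν ≤ vertexVIter p M₁ M₂ n δ :=
  le_iSup (fun μ : {μ : CosetVertex M₁ M₂ // (cosetGraph M₁ M₂).dist δ μ ≤ n} =>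
    vertexZ p (μ : CosetVertex M₁ M₂)) ⟨ν, h⟩

theorem iter_le {n : ℕ} {δ : CosetVertex M₁ M₂} {W : Subgroup X}
    (h : ∀ ν, (cosetGraph M₁ M₂).dist δ ν ≤ n → vertexZ p ν ≤ W) :
    vertexVIter p M₁ M₂ n δ ≤ W :=
  iSup_le fun μ => h μ μ.2

theorem iter_mono {m n : ℕ} (hmn : m ≤ n) (δ : CosetVertex M₁ M₂) :
    vertexVIter p M₁ M₂ m δ ≤ vertexVIter p M₁ M₂ n δ :=
  iter_le fun _ hν => vertexZ_le_iter (hν.trans hmn)

theorem exists_adj_vertex (δ : CosetVertex M₁ M₂) : ∃ μ, (cosetGraph M₁ M₂).Adj δ μ := by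
  rcases δ with δ | δ
  · induction δ using QuotientGroup.induction_on with
    | H x => exact ⟨_, cosetGraph_adj_mk x⟩
  · induction δ using QuotientGroup.induction_on with
    | H x => exact ⟨_, (cosetGraph_adj_mk x).symm⟩

variable [hp : Fact p.Prime]

theorem vertexZ_map_conj (h : IsCharPAmalgamPair p M₁ M₂) (g : X) (ν : CosetVertex M₁ M₂) :
    (vertexZ p ν).map (MulAut.conj g).toMonoidHom = vertexZ p (g • ν) := by
  have := finite_stabilizer h ν
  show (sylowCenterClosure p (MulAction.stabilizer X ν)).map _ = sylowCenterClosure p _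
  rw [sylowCenterClosure_map_conj, MulAction.stabilizer_smul_eq_stabilizer_map_conj]

theorem iter_map_conj_le (h : IsCharPAmalgamPair p M₁ M₂) (g : X) (n : ℕ) (δ : CosetVertex M₁ M₂) :
    (vertexVIter p M₁ M₂ n δ).map (MulAut.conj g).toMonoidHom ≤ vertexVIter p M₁ M₂ n (g • δ) := by
  unfold vertexVIter
  rw [Subgroup.map_iSup]
  refine iSup_le fun μ => ?_
  rw [vertexZ_map_conj h]
  exact vertexZ_le_iter (by rw [dist_smul]; exact μ.2)

theorem iter_map_conj (h : IsCharPAmalgamPair p M₁ M₂) (g : X) (n : ℕ) (δ : CosetVertex M₁ M₂) :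
    (vertexVIter p M₁ M₂ n δ).map (MulAut.conj g).toMonoidHom = vertexVIter p M₁ M₂ n (g • δ) := by
  refine le_antisymm (iter_map_conj_le h g n δ) ?_
  have h1 := iter_map_conj_le h g⁻¹ n (g • δ)
  rw [inv_smul_smul] at h1
  have h2 := Subgroup.map_mono (f := (MulAut.conj g).toMonoidHom) h1
  rw [map_conj_conj, mul_inv_cancel, map_conj_one] at h2
  exact h2

theorem stab_le_normalizer_iter (h : IsCharPAmalgamPair p M₁ M₂) (n : ℕ) (δ : CosetVertex M₁ M₂) :
    MulAction.stabilizer X δ ≤ Subgroup.normalizer (vertexVIter p M₁ M₂ n δ : Set X) := by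
  intro g hg
  have e := iter_map_conj h g n δ
  rw [show g • δ = δ from hg] at e
  rw [Subgroup.mem_normalizer_iff]
  intro x
  constructor
  · intro hx
    rw [← e]
    exact ⟨x, hx, rfl⟩
  · intro hx
    have hx' : g * x * g⁻¹ ∈ (vertexVIter p M₁ M₂ n δ).map (MulAut.conj g).toMonoidHom := by
      rw [e]; exact hx
    rw [mem_map_conj_iff] at hx'
    simpa [mul_assoc] using hx'

theorem iter_le_succ_of_adj (h : IsCharPAmalgamPair p M₁ M₂) {δ μ : CosetVertex M₁ M₂}
    (hadj : (cosetGraph M₁ M₂).Adj δ μ) (n : ℕ) :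
    vertexVIter p M₁ M₂ n μ ≤ vertexVIter p M₁ M₂ (n + 1) δ := by
  refine iter_le fun ν hν => vertexZ_le_iter ?_
  have h1 := (connected_of_charP h).dist_triangle (u := δ) (v := μ) (w := ν)
  rw [SimpleGraph.dist_eq_one_iff_adj.2 hadj] at h1
  omega

/-- Two Sylow subgroups of a subgroup are conjugate under it, in the ambient group. -/
theorem sylow_map_eq_conj {H : Subgroup X} [Finite H] (P S : Sylow p H) :
    ∃ g ∈ H, (S : Subgroup H).map H.subtype =
      ((P : Subgroup H).map H.subtype).map (MulAut.conj g).toMonoidHom := by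
  obtain ⟨g, hg⟩ := MulAction.exists_smul_eq H P S
  refine ⟨g, g.2, ?_⟩
  rw [← hg]
  ext y
  constructor
  · rintro ⟨z, hz, rfl⟩
    rw [Sylow.smul_def, Sylow.pointwise_smul_def] at hz
    obtain ⟨w, hw, rfl⟩ := hz
    exact ⟨w, ⟨w, hw, rfl⟩, rfl⟩
  · rintro ⟨_, ⟨w, hw, rfl⟩, rfl⟩
    refine ⟨g * w * g⁻¹, ?_, rfl⟩
    rw [Sylow.smul_def, Sylow.pointwise_smul_def]
    exact ⟨w, hw, rfl⟩

/-- Generation: `V_λ^{(n+1)}` is generated by the `G_λ`-conjugates of `V_μ^{(n)}`. -/
theorem iter_succ_le (h : IsCharPAmalgamPair p M₁ M₂) {δ μ : CosetVertex M₁ M₂}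
    (hadj : (cosetGraph M₁ M₂).Adj δ μ) (n : ℕ) {U : Subgroup X}
    (hU : ∀ g ∈ MulAction.stabilizer X δ,
      (vertexVIter p M₁ M₂ n μ).map (MulAut.conj g).toMonoidHom ≤ U) :
    vertexVIter p M₁ M₂ (n + 1) δ ≤ U := by
  refine iter_le fun ν hν => ?_
  by_cases hne : δ = ν
  · subst hne
    have hfinδ := finite_stabilizer h δ
    have hfe := finite_edge h δ μ
    refine iSup_le fun S => ?_
    obtain ⟨S₀⟩ : Nonempty (Sylow p ↥(edgeStabilizer δ μ)) := inferInstance
    obtain ⟨P₀, hP₀⟩ := sylow_of_edge_left h hadj ⟨S₀, rfl⟩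
    obtain ⟨P₁, hP₁⟩ := sylow_of_edge_right h hadj ⟨S₀, rfl⟩
    obtain ⟨g, hg, hgS⟩ := sylow_map_eq_conj P₀ S
    rw [hgS, ← map_conj_centralizer, ← map_conj_inf, ← map_conj_omegaOne]
    refine le_trans (Subgroup.map_mono ?_) (hU g hg)
    rw [hP₀, ← hP₁]
    refine (omegaOne_sylow_le_sylowCenterClosure P₁).trans ?_
    exact vertexZ_le_iter (n := n) (δ := μ) (ν := μ) (by simp)
  · obtain ⟨β, hβ, hd⟩ := exists_adj_dist (connected_of_charP h) hne
    obtain ⟨g, hg, hgμ⟩ := stabilizer_transitive_on_neighbours δ μ β hadj hβ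
    have h1 : vertexZ p ν ≤ vertexVIter p M₁ M₂ n β := vertexZ_le_iter (by omega)
    rw [← hgμ, ← iter_map_conj h] at h1
    exact h1.trans (hU g hg)

/-- `Z_δ` is nontrivial. -/
theorem vertexZ_ne_bot (h : IsCharPAmalgamPair p M₁ M₂) (δ : CosetVertex M₁ M₂) :
    vertexZ p δ ≠ ⊥ := by
  have hfin := finite_stabilizer h δ
  obtain ⟨-, hf1, hf2, hd1, hd2, -⟩ := h
  have hdvd : p ∣ Nat.card (MulAction.stabilizer X δ) := by
    obtain ⟨x, hx | hx⟩ := stabilizer_cases δ
    · rw [hx, card_map_conj]; exact hd1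
    · rw [hx, card_map_conj]; exact hd2
  obtain ⟨S⟩ : Nonempty (Sylow p ↥(MulAction.stabilizer X δ)) := inferInstance
  have hS := S.ne_bot_of_dvd_card hdvd
  set T := (S : Subgroup ↥(MulAction.stabilizer X δ)).map (MulAction.stabilizer X δ).subtype with hT
  have hTp : IsPGroup p T := isPGroup_sylow_map S
  have hfinT : Finite T := Finite.of_injective _ (Subgroup.inclusion_injective (sylow_map_le S))
  have hT1 : T ≠ ⊥ := by
    intro hb
    apply hS
    exact (Subgroup.map_eq_bot_iff_of_injective _ (Subgroup.subtype_injective _)).mp hb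
  haveI : Nontrivial T := (Subgroup.nontrivial_iff_ne_bot T).mpr hT1
  haveI := hTp.center_nontrivial
  obtain ⟨⟨z, hz⟩, hz1⟩ := exists_ne (1 : Subgroup.center T)
  set K := T ⊓ Subgroup.centralizer (T : Set X) with hK
  have hzK : (z : X) ∈ K := by
    refine ⟨z.2, Subgroup.mem_centralizer_iff.mpr ?_⟩
    intro t ht
    have := (Subgroup.mem_center_iff.mp hz) ⟨t, ht⟩
    exact congrArg Subtype.val this
  have hK1 : K ≠ ⊥ := by
    intro hb
    rw [hb] at hzK
    apply hz1
    apply Subtype.ext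
    apply Subtype.ext
    exact hzK
  have hKp : IsPGroup p K := hTp.to_le inf_le_left
  have hfinK : Finite K := Finite.of_injective _ (Subgroup.inclusion_injective (inf_le_left : K ≤ T))
  obtain ⟨y, hy, hyo⟩ := exists_orderOf_eq_prime hK1 hKp
  have hy1 : y ∈ omegaOne p K := mem_omegaOne_of K hy (by rw [← hyo]; exact pow_orderOf_eq_one y)
  have hy2 : y ∈ vertexZ p δ := omegaOne_sylow_le_sylowCenterClosure S hy1
  intro hb
  rw [hb] at hy2
  have : y = 1 := hy2
  rw [this, orderOf_one] at hyo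
  exact hp.out.one_lt.ne hyo

/-- If `V_λ^{(n+1)} ≤ Q_λ` lies in `V_μ^{(n)}` we have a contradiction. -/
theorem iter_false (h : IsSpeAmalgamPair p M₁ M₂) {δ μ : CosetVertex M₁ M₂}
    (hadj : (cosetGraph M₁ M₂).Adj δ μ) (n : ℕ)
    (hVQ : vertexVIter p M₁ M₂ (n + 1) δ ≤ vertexQ p δ)
    (hW : vertexVIter p M₁ M₂ (n + 1) δ ≤ vertexVIter p M₁ M₂ n μ) : False := by
  have hc := h.1
  have hfe := finite_edge hc δ μ
  have hfinδ := finite_stabilizer hc δ
  have heq : vertexVIter p M₁ M₂ (n + 1) δ = vertexVIter p M₁ M₂ n μ :=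
    le_antisymm hW (iter_le_succ_of_adj hc hadj n)
  obtain ⟨S⟩ : Nonempty (Sylow p ↥(edgeStabilizer δ μ)) := inferInstance
  obtain ⟨P, hP⟩ := sylow_of_edge_left hc hadj ⟨S, rfl⟩
  have h1 := spe_eq_bot h hadj S _ rfl (vertexVIter p M₁ M₂ (n + 1) δ)
    (by rw [← hP]; exact hVQ.trans (pCoreOf_le_sylow P))
    ((pElementClosure_le _).trans (stab_le_normalizer_iter hc (n + 1) δ))
    (by rw [heq]; exact (pElementClosure_le _).trans (stab_le_normalizer_iter hc n μ))
  have h2 : vertexZ p δ ≤ vertexVIter p M₁ M₂ (n + 1) δ := vertexZ_le_iter (by simp)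
  rw [h1] at h2
  exact vertexZ_ne_bot hc δ (le_bot_iff.mp h2)

/-- `O^p(O^{p'}(G_δ))` is transitive on the neighbours of `δ`. -/
theorem exists_residual_smul (h : IsSpeAmalgamPair p M₁ M₂) {δ μ ν : CosetVertex M₁ M₂}
    (hadj : (cosetGraph M₁ M₂).Adj δ μ) (hν : (cosetGraph M₁ M₂).Adj δ ν) :
    ∃ k ∈ (pResidual p ↥(pElementClosure p (MulAction.stabilizer X δ))).map
        (pElementClosure p (MulAction.stabilizer X δ)).subtype, k • μ = ν := by
  have hc := h.1
  have hfe := finite_edge hc δ μ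
  have hfinδ := finite_stabilizer hc δ
  obtain ⟨S⟩ : Nonempty (Sylow p ↥(edgeStabilizer δ μ)) := inferInstance
  set T := (S : Subgroup ↥(edgeStabilizer δ μ)).map (edgeStabilizer δ μ).subtype with hT
  obtain ⟨P, hP⟩ := sylow_of_edge_left hc hadj ⟨S, rfl⟩
  have hP' : (P : Subgroup ↥(MulAction.stabilizer X δ)).map (MulAction.stabilizer X δ).subtype = T := hP
  obtain ⟨l, hl, hlν⟩ := spe_transitive h hadj ⟨S, rfl⟩ hν
  set L := pElementClosure p (MulAction.stabilizer X δ) with hL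
  have hLS : L ≤ MulAction.stabilizer X δ := pElementClosure_le _
  have hfinL : Finite L := Finite.of_injective _ (Subgroup.inclusion_injective hLS)
  have hTp : IsPGroup p T := isPGroup_sylow_map S
  have hTS : T ≤ MulAction.stabilizer X δ := (sylow_map_le S).trans inf_le_left
  have hTL : T ≤ L := le_pElementClosure_of_isPGroup hTS hTp
  have hT'p : IsPGroup p (T.subgroupOf L) :=
    hTp.comap_of_injective _ (Subgroup.subtype_injective L) |>.to_le (by
      intro x hx
      exact hx)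
  obtain ⟨Q, hQ⟩ := hT'p.exists_le_sylow
  -- `Q` maps onto `T`
  have hQT : (Q : Subgroup L).map L.subtype = T := by
    set R := (Q : Subgroup L).map L.subtype with hR
    have hRS : R ≤ MulAction.stabilizer X δ := (Subgroup.map_subtype_le _).trans hLS
    have hRp : IsPGroup p R := (Q.isPGroup').map L.subtype
    have hR'p : IsPGroup p (R.subgroupOf (MulAction.stabilizer X δ)) :=
      hRp.comap_of_injective _ (Subgroup.subtype_injective _) |>.to_le (by
        intro x hx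
        exact hx)
    have hPle : (P : Subgroup ↥(MulAction.stabilizer X δ)) ≤
        R.subgroupOf (MulAction.stabilizer X δ) := by
      intro x hx
      rw [Subgroup.mem_subgroupOf]
      have hxT : (x : X) ∈ T := by
        rw [← hP']; exact ⟨x, hx, rfl⟩
      exact ⟨⟨x, hTL hxT⟩, hQ (show (⟨x, hTL hxT⟩ : L) ∈ T.subgroupOf L from hxT), rfl⟩
    have he := P.is_maximal' hR'p hPle
    apply le_antisymm
    · intro x hx
      have hx' : (⟨x, hRS hx⟩ : ↥(MulAction.stabilizer X δ)) ∈ R.subgroupOf (MulAction.stabilizer X δ) := hx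
      rw [he] at hx'
      rw [← hP']
      exact ⟨_, hx', rfl⟩
    · intro x hx
      exact ⟨⟨x, hTL hx⟩, hQ (show (⟨x, hTL hx⟩ : L) ∈ T.subgroupOf L from hx), rfl⟩
  have hsup := Cfsg.Agent.Lib.Transfer.sup_pResidual_sylow (p := p) Q
  haveI : (pResidual p L).Normal := Cfsg.Agent.Lib.Techniques.pResidual_normal ↥L p
  obtain ⟨k, hk, t, ht, hkt⟩ := Cfsg.Agent.Lib.FF.exists_mul_of_mem_sup
    (K := pResidual p L) (J := (Q : Subgroup L)) (by
      rw [Subgroup.normalizer_eq_top_iff.mpr inferInstance]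
      exact le_top) (show (⟨l, hl⟩ : L) ∈ pResidual p L ⊔ (Q : Subgroup L) by rw [hsup]; trivial)
  refine ⟨k, ⟨k, hk, rfl⟩, ?_⟩
  have htT : (t : X) ∈ T := by rw [← hQT]; exact ⟨t, ht, rfl⟩
  have htμ : (t : X) • μ = μ := by
    obtain ⟨y, -, hy⟩ := htT
    rw [← hy]
    exact y.2.2
  rw [← hlν]
  have e : l = (k : X) * (t : X) := congrArg Subtype.val hkt
  rw [e, mul_smul, htμ]

/-- `V_λ^{(n+1)}` is `V_μ^{(n)}` modulo anything containing `[V_λ^{(n+1)}, O^p(L_λ)]`. -/
theorem iter_le_sup (h : IsSpeAmalgamPair p M₁ M₂) {δ μ : CosetVertex M₁ M₂}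
    (hadj : (cosetGraph M₁ M₂).Adj δ μ) (n : ℕ) {Y : Subgroup X}
    (hY : ⁅vertexVIter p M₁ M₂ (n + 1) δ,
      (pResidual p ↥(pElementClosure p (MulAction.stabilizer X δ))).map
        (pElementClosure p (MulAction.stabilizer X δ)).subtype⁆ ≤ Y) :
    vertexVIter p M₁ M₂ (n + 1) δ ≤ vertexVIter p M₁ M₂ n μ ⊔ Y := by
  have hc := h.1
  refine iter_succ_le hc hadj n fun g hg => ?_
  have hgadj : (cosetGraph M₁ M₂).Adj δ (g • μ) := by
    have := (cosetGraph_adj_smul_iff g (a := δ) (b := μ)).mpr hadj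
    rwa [show g • δ = δ from hg] at this
  obtain ⟨k, hk, hkμ⟩ := exists_residual_smul h hadj hgadj
  rw [iter_map_conj hc, ← hkμ, ← iter_map_conj hc]
  rintro _ ⟨w, hw, rfl⟩
  have hwV := iter_le_succ_of_adj hc hadj n hw
  have h1 : ⁅k, w⁆ ∈ Y := by
    apply hY
    rw [Subgroup.commutator_comm]
    exact Subgroup.commutator_mem_commutator hk hwV
  have e : (MulAut.conj k).toMonoidHom w = ⁅k, w⁆ * w := by
    simp [commutatorElement_def]
  rw [e]
  exact mul_mem ((le_sup_right : Y ≤ _) h1) ((le_sup_left : vertexVIter p M₁ M₂ n μ ≤ _) hw)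

theorem iter_not_le_commutator (h : IsSpeAmalgamPair p M₁ M₂) (δ : CosetVertex M₁ M₂) (n : ℕ)
    (hVQ : vertexVIter p M₁ M₂ (n + 1) δ ≤ vertexQ p δ) :
    ¬ ⁅vertexVIter p M₁ M₂ (n + 1) δ,
      (pResidual p ↥(pElementClosure p (MulAction.stabilizer X δ))).map
        (pElementClosure p (MulAction.stabilizer X δ)).subtype⁆ ≤
      ⁅vertexVIter p M₁ M₂ (n + 1) δ, vertexQ p δ⁆ := by
  intro hY
  have hc := h.1
  obtain ⟨μ, hadj⟩ := exists_adj_vertex δ
  have h1 := iter_le_sup h hadj n hY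
  have hfinδ := finite_stabilizer hc δ
  have hQS : vertexQ p δ ≤ MulAction.stabilizer X δ := pCoreOf_le_self _
  have hfinQ : Finite (vertexQ p δ) := Finite.of_injective _ (Subgroup.inclusion_injective hQS)
  have hQp : IsPGroup p (vertexQ p δ) := (Cfsg.Agent.Lib.Core.pCore_isPGroup p _).map _
  refine iter_false h hadj n hVQ (le_of_le_sup_commutator hQp hVQ
    ((iter_le_succ_of_adj hc hadj n).trans hVQ) ?_ h1)
  exact ((vertexQ_le_neighbourKernel hc δ).trans (neighbourKernel_le_stabilizer_of_adj hadj)).trans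
    (stab_le_normalizer_iter hc n μ)

theorem iter_not_le_iter (h : IsSpeAmalgamPair p M₁ M₂) (δ : CosetVertex M₁ M₂) (n : ℕ)
    (hVQ : vertexVIter p M₁ M₂ (n + 2) δ ≤ vertexQ p δ) :
    ¬ ⁅vertexVIter p M₁ M₂ (n + 2) δ,
      (pResidual p ↥(pElementClosure p (MulAction.stabilizer X δ))).map
        (pElementClosure p (MulAction.stabilizer X δ)).subtype⁆ ≤
      vertexVIter p M₁ M₂ n δ := by
  intro hY
  have hc := h.1
  obtain ⟨μ, hadj⟩ := exists_adj_vertex δ
  have h1 := iter_le_sup h hadj (n + 1) hY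
  refine iter_false h hadj (n + 1) hVQ (h1.trans (sup_le le_rfl ?_))
  exact iter_le_succ_of_adj hc hadj.symm n

end Graph

end Cfsg.Agent.Lib.Amalgam
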